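import Mathlib
import Cfsg.Agent.LieClassical.SympCount
import Cfsg.Agent.H177.InvolOrth

/-!
# Project KGL (helper660): the order of a group of isometries of a nondegenerate alternating form divides
`|Sp_{2n}(q)|`
-/

set_option autoImplicit false

namespace Cfsg.Agent.H660.KGL

open Matrix Module

/-- The order of a group of isometries of a nondegenerate alternating form. -/
theorem card_dvd_sp {F V : Type*} [Field F] [Fintype F] [AddCommGroup V] [Module F V] [FiniteDimensional F V]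
    {n : ℕ} (hV : finrank F V = 2 * n) (ω : LinearMap.BilinForm F V) (hA : ω.IsAlt) (hN : ω.Nondegenerate)
    (H : Subgroup (V ≃ₗ[F] V)) (hH : ∀ h ∈ H, ∀ u v, ω (h u) (h v) = ω u v) :
    Nat.card H ∣ Fintype.card F ^ (n ^ 2) * ∏ i ∈ Finset.range n, (Fintype.card F ^ (2 * (i + 1)) - 1) := by
  obtain ⟨m, b, hm, h1, h2, h3, h4⟩ := Cfsg.Agent.H177.InvolOrth.exists_symplectic_basis ω hA hN
  obtain rfl : m = n := by omega
  have hG : LinearMap.BilinForm.toMatrix b ω = -Matrix.J (Fin m) F := by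
    ext i j
    rw [LinearMap.BilinForm.toMatrix_apply, Matrix.J]
    rcases i with i | i <;> rcases j with j | j
    · rw [h3]; simp
    · rw [h1]; simp [Matrix.one_apply]
    · rw [h2]; by_cases hij : i = j <;> simp [Matrix.one_apply, hij]
    · rw [h4]; simp
  have hmem : ∀ h ∈ H, LinearMap.toMatrix b b (h : V →ₗ[F] V) ∈ Matrix.symplecticGroup (Fin m) F := by
    intro h hh
    rw [SymplecticGroup.mem_iff']
    have hc : ω.comp (h : V →ₗ[F] V) (h : V →ₗ[F] V) = ω := by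
      ext u v
      exact hH h hh u v
    have h5 := LinearMap.BilinForm.toMatrix_comp b b ω (h : V →ₗ[F] V) (h : V →ₗ[F] V)
    rw [hc, hG] at h5
    rw [← neg_inj, h5]
    simp only [mul_neg, neg_mul]
  let f : ↥H →* Matrix.symplecticGroup (Fin m) F :=
    { toFun := fun h => ⟨LinearMap.toMatrix b b (h.1 : V →ₗ[F] V), hmem h.1 h.2⟩
      map_one' := Subtype.ext (LinearMap.toMatrix_one b)
      map_mul' := fun g h => Subtype.ext (LinearMap.toMatrix_mul b (g.1 : V →ₗ[F] V) (h.1 : V →ₗ[F] V)) }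
  have hf : Function.Injective f := by
    intro g h hgh
    have h6 : LinearMap.toMatrix b b (g.1 : V →ₗ[F] V) = LinearMap.toMatrix b b (h.1 : V →ₗ[F] V) :=
      congrArg Subtype.val hgh
    have h7 := (LinearMap.toMatrix b b).injective h6
    exact Subtype.ext (LinearEquiv.toLinearMap_injective h7)
  rw [← Cfsg.Agent.LieClassical.SympCount.card_symplecticGroup (F := F) m]
  rw [Nat.card_congr (MonoidHom.ofInjective hf).toEquiv]
  exact Subgroup.card_subgroup_dvd_card _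

/-- The isometries of a nondegenerate alternating form on `F_2 ^ (2 n)`. -/
theorem card_dvd_sp_two {n : ℕ} (ω : LinearMap.BilinForm (ZMod 2) (Fin (2 * n) → ZMod 2)) (hA : ω.IsAlt)
    (hN : ω.Nondegenerate) (H : Subgroup ((Fin (2 * n) → ZMod 2) ≃ₗ[ZMod 2] (Fin (2 * n) → ZMod 2)))
    (hH : ∀ h ∈ H, ∀ u v, ω (h u) (h v) = ω u v) :
    Nat.card H ∣ 2 ^ (n ^ 2) * ∏ i ∈ Finset.range n, (2 ^ (2 * (i + 1)) - 1) := by
  have h := card_dvd_sp (n := n) (by rw [finrank_fin_fun]) ω hA hN H hH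
  rwa [ZMod.card] at h

theorem card_dvd_sp_eight (ω : LinearMap.BilinForm (ZMod 2) (Fin (2 * 4) → ZMod 2)) (hA : ω.IsAlt)
    (hN : ω.Nondegenerate) (H : Subgroup ((Fin (2 * 4) → ZMod 2) ≃ₗ[ZMod 2] (Fin (2 * 4) → ZMod 2)))
    (hH : ∀ h ∈ H, ∀ u v, ω (h u) (h v) = ω u v) : Nat.card H ∣ 47377612800 := by
  have h := card_dvd_sp_two ω hA hN H hH
  norm_num [Finset.prod_range_succ] at h
  exact h

theorem card_dvd_sp_ten (ω : LinearMap.BilinForm (ZMod 2) (Fin (2 * 5) → ZMod 2)) (hA : ω.IsAlt)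
    (hN : ω.Nondegenerate) (H : Subgroup ((Fin (2 * 5) → ZMod 2) ≃ₗ[ZMod 2] (Fin (2 * 5) → ZMod 2)))
    (hH : ∀ h ∈ H, ∀ u v, ω (h u) (h v) = ω u v) : Nat.card H ∣ 24815256521932800 := by
  have h := card_dvd_sp_two ω hA hN H hH
  norm_num [Finset.prod_range_succ] at h
  exact h

theorem card_dvd_sp_six (ω : LinearMap.BilinForm (ZMod 2) (Fin (2 * 3) → ZMod 2)) (hA : ω.IsAlt)
    (hN : ω.Nondegenerate) (H : Subgroup ((Fin (2 * 3) → ZMod 2) ≃ₗ[ZMod 2] (Fin (2 * 3) → ZMod 2)))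
    (hH : ∀ h ∈ H, ∀ u v, ω (h u) (h v) = ω u v) : Nat.card H ∣ 1451520 := by
  have h := card_dvd_sp_two ω hA hN H hH
  norm_num [Finset.prod_range_succ] at h
  exact h

theorem card_dvd_sp_four (ω : LinearMap.BilinForm (ZMod 2) (Fin (2 * 2) → ZMod 2)) (hA : ω.IsAlt)
    (hN : ω.Nondegenerate) (H : Subgroup ((Fin (2 * 2) → ZMod 2) ≃ₗ[ZMod 2] (Fin (2 * 2) → ZMod 2)))
    (hH : ∀ h ∈ H, ∀ u v, ω (h u) (h v) = ω u v) : Nat.card H ∣ 720 := by
  have h := card_dvd_sp_two ω hA hN H hH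
  norm_num [Finset.prod_range_succ] at h
  exact h

end Cfsg.Agent.H660.KGL
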