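import Cfsg.Agent.H660.KGL.Solv
import Cfsg.Agent.H660.KGL.SpCard

/-!
# Project KGL, task E6 (helper660): class numbers of subnormal subgroups of irreducible subgroups of `Sp_8(2)` and
`Sp_10(2)`
-/

set_option autoImplicit false

namespace Cfsg.Agent.H660.KGL

open Subgroup Cfsg Cfsg.Agent.H475.KGL Cfsg.Agent.Lib.Cores Cfsg.Agent.OrdDiv

section

variable {G : Type*} [Group G] [Finite G]

theorem pCore_eq_bot_of_not_dvd {r : ℕ} [Fact r.Prime] (h : ¬ r ∣ Nat.card G) : pCore r G = ⊥ := by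
  obtain ⟨n, hn⟩ := (pCore_isPGroup (G := G) r).exists_card_eq
  rw [← Subgroup.card_eq_one, hn]
  rcases Nat.eq_zero_or_pos n with h1 | h1
  · rw [h1, pow_zero]
  · exfalso
    exact h ((dvd_pow_self r h1.ne').trans (hn ▸ card_subgroup_dvd_card _))

/-- The order of a solvable group whose cores lie in a two generator group. -/
theorem card_le_of_two [Group.IsSolvable G] {z w : G} (h : ∀ r : ℕ, r.Prime → pCore r G ≤ closure {z, w}) :
    Nat.card G ≤ Nat.card (fittingSubgroup G) *
      ((centralizer ({z} : Set G)).index * (centralizer ({w} : Set G)).index) := by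
  have h1 : centralizer ({z} : Set G) ⊓ centralizer ({w} : Set G) ≤ fittingSubgroup G := by
    intro x hx
    refine (Cfsg.Agent.OddOrderLocal.RankTwoFitting.mem_fitting_of_forall_mem_centralizer fun r hr => ?_).2
    have h2 : closure {z, w} ≤ centralizer ({x} : Set G) := by
      rw [closure_le]
      rintro y (rfl | hy)
      · rw [SetLike.mem_coe, mem_centralizer_iff]
        intro t ht
        rw [Set.mem_singleton_iff.1 ht]
        exact (mem_centralizer_iff.1 hx.1 y rfl).symm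
      · rw [SetLike.mem_coe, mem_centralizer_iff]
        intro t ht
        rw [Set.mem_singleton_iff.1 ht, Set.mem_singleton_iff.1 hy]
        exact (mem_centralizer_iff.1 hx.2 w rfl).symm
    rw [mem_centralizer_iff]
    intro y hy
    exact (mem_centralizer_iff.1 (h2 (h r hr hy)) x rfl).symm
  rw [← (centralizer ({z} : Set G) ⊓ centralizer ({w} : Set G)).card_mul_index]
  exact Nat.mul_le_mul (Nat.card_le_card_of_injective _ (Subgroup.inclusion_injective h1)) index_inf_le

/-- A group of order dividing `p ^ 2` is generated by two elements. -/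
theorem exists_two_gen {p : ℕ} (hp : p.Prime) {P : Subgroup G} (h : Nat.card P ∣ p ^ 2) :
    ∃ z ∈ P, ∃ w ∈ P, P ≤ closure {z, w} := by
  by_cases h1 : ∃ z ∈ P, z ≠ 1
  swap
  · push Not at h1
    refine ⟨1, P.one_mem, 1, P.one_mem, fun x hx => ?_⟩
    rw [h1 x hx]
    exact one_mem _
  obtain ⟨z, hz, hz1⟩ := h1
  by_cases h2 : P ≤ zpowers z
  · refine ⟨z, hz, z, hz, h2.trans ?_⟩
    rw [zpowers_le]
    exact subset_closure (Or.inl rfl)
  · obtain ⟨w, hw, hwz⟩ := Set.not_subset.1 h2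
    refine ⟨z, hz, w, hw, ?_⟩
    have hle : closure {z, w} ≤ P := by
      rw [closure_le]
      rintro y (rfl | hy)
      · exact hz
      · rw [Set.mem_singleton_iff.1 hy]; exact hw
    have hlt : zpowers z < closure {z, w} := by
      refine lt_of_le_of_ne ((zpowers_le).2 (subset_closure (Or.inl rfl))) fun he => hwz ?_
      rw [he]
      exact subset_closure (Or.inr rfl)
    have hc1 : Nat.card (zpowers z) ∣ Nat.card (closure {z, w} : Subgroup G) := card_dvd_of_le hlt.le
    have hc2 : Nat.card (closure {z, w} : Subgroup G) ∣ p ^ 2 := (card_dvd_of_le hle).trans h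
    have hc3 : Nat.card (closure {z, w} : Subgroup G) ≠ Nat.card (zpowers z) := by
      intro he
      exact hlt.ne (Subgroup.eq_of_le_of_card_ge hlt.le he.le)
    have hc4 : Nat.card (zpowers z) ≠ 1 := by
      intro he
      rw [Subgroup.card_eq_one, zpowers_eq_bot] at he
      exact hz1 he
    obtain ⟨a, ha, hca⟩ := (Nat.dvd_prime_pow hp).1 hc2
    obtain ⟨b, hb, hcb⟩ := (Nat.dvd_prime_pow hp).1 (hc1.trans hc2)
    have hba : b ≤ a := by
      rw [hca, hcb] at hc1
      exact (Nat.pow_dvd_pow_iff_le_right hp.one_lt).1 hc1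
    have hb0 : b ≠ 0 := by
      rintro rfl
      exact hc4 (by rw [hcb, pow_zero])
    have hab : a ≠ b := by
      rintro rfl
      exact hc3 (by rw [hca, hcb])
    have ha2 : a = 2 := by omega
    have hle2 : Nat.card P ≤ Nat.card (closure {z, w} : Subgroup G) := by
      rw [hca, ha2]
      exact Nat.le_of_dvd (pow_pos hp.pos 2) h
    exact (Subgroup.eq_of_le_of_card_ge hle hle2).ge

/-- A group of order dividing `p` is cyclic. -/
theorem exists_gen {p : ℕ} (hp : p.Prime) {P : Subgroup G} (h : Nat.card P ∣ p) : ∃ z ∈ P, P ≤ zpowers z := by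
  rcases (Nat.dvd_prime hp).1 h with h1 | h1
  · exact ⟨1, P.one_mem, by rw [(Subgroup.card_eq_one).1 h1]; exact bot_le⟩
  · have : Fact p.Prime := ⟨hp⟩
    obtain ⟨z, hz⟩ := exists_prime_orderOf_dvd_card' p (dvd_of_eq h1.symm)
    refine ⟨z, z.2, ?_⟩
    have hle : zpowers (z : G) ≤ P := (zpowers_le).2 z.2
    exact (Subgroup.eq_of_le_of_card_ge hle (by rw [Nat.card_zpowers, Subgroup.orderOf_coe, hz, h1])).ge

end

theorem card_v4 : Nat.card (Fin (2 * 4) → ZMod 2) = 256 := by
  rw [Nat.card_eq_fintype_card, Fintype.card_fun, ZMod.card, Fintype.card_fin]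
  norm_num

theorem card_v5 : Nat.card (Fin (2 * 5) → ZMod 2) = 1024 := by
  rw [Nat.card_eq_fintype_card, Fintype.card_fun, ZMod.card, Fintype.card_fin]
  norm_num

/-- Subspaces of `F_2^8` with `1` modulo `17` elements. -/
theorem sub_seventeen (U : Submodule (ZMod 2) (Fin (2 * 4) → ZMod 2)) (h : Nat.card U ≡ 1 [MOD 17]) :
    U = ⊥ ∨ U = ⊤ := by
  have h1 : Nat.card U ∣ 2 ^ 8 := by
    have h2 := AddSubgroup.card_addSubgroup_dvd_card U.toAddSubgroup
    rw [card_v4] at h2
    exact h2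
  obtain ⟨a, ha, hca⟩ := (Nat.dvd_prime_pow Nat.prime_two).1 h1
  rw [hca] at h
  have h3 : a = 0 ∨ a = 8 := by
    interval_cases a <;> first
      | exact Or.inl rfl
      | exact Or.inr rfl
      | exact absurd h (by decide)
  rcases h3 with rfl | rfl
  · left
    have h4 : Nat.card U.toAddSubgroup = 1 := hca
    rw [AddSubgroup.card_eq_one] at h4
    rw [← Submodule.toAddSubgroup_inj, h4]
    rfl
  · right
    have h4 : Nat.card U.toAddSubgroup = Nat.card (Fin (2 * 4) → ZMod 2) := by rw [card_v4]; exact hca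
    have h5 := AddSubgroup.eq_top_of_card_eq _ h4
    rw [← Submodule.toAddSubgroup_inj, h5]
    rfl

theorem ebd_7_4 : EBd 7 4 21551835648 := by
  intro ω Hb hA hN hiso hp hI X hX
  have h1 : Nat.card X ∣ 7 * 6768230400 := card_dvd_sp_eight ω hA hN X (fun h hh => hiso h (hX.1 hh))
  have h2 : ¬ 7 ∣ Nat.card X := fun h => hp (h.trans (card_dvd_of_le hX.1))
  have h3 : Nat.card X ∣ 6768230400 :=
    Nat.Coprime.dvd_of_dvd_mul_left ((Nat.Prime.coprime_iff_not_dvd (by norm_num)).2 h2).symm h1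
  have : Finite ↥X := Nat.finite_of_card_ne_zero (fun h => by rw [h] at h3; norm_num at h3)
  exact (kc_le_card _).trans ((Nat.le_of_dvd (by norm_num) h3).trans (by norm_num))

/-- The centraliser of an element of order `17`. -/
theorem card_centralizer_seventeen {x : (Fin (2 * 4) → ZMod 2) ≃ₗ[ZMod 2] (Fin (2 * 4) → ZMod 2)} (hx : orderOf x = 17)
    {C : Type*} [Group C] (f : C →* ((Fin (2 * 4) → ZMod 2) ≃ₗ[ZMod 2] (Fin (2 * 4) → ZMod 2)))
    (hf : Function.Injective f) (hC : ∀ c : C, f c * x = x * f c) : Nat.card C ≤ 255 := by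
  have : Fact (Nat.Prime 17) := ⟨by norm_num⟩
  have h := card_le_of_commute sub_seventeen (by rw [card_v4]; decide) hx f hf hC
  rwa [card_v4] at h

theorem ebd_5_4 : EBd 5 4 148431800 := by
  intro ω Hb hA hN hiso hp hI X hX
  have : Fact (Nat.Prime 17) := ⟨by norm_num⟩
  have h1 : Nat.card X ∣ 5 ^ 2 * 1895104512 := card_dvd_sp_eight ω hA hN X (fun h hh => hiso h (hX.1 hh))
  have h2 : ¬ 5 ∣ Nat.card X := fun h => hp (h.trans (card_dvd_of_le hX.1))
  have h3 : Nat.card X ∣ 17 * 111476736 :=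
    Nat.Coprime.dvd_of_dvd_mul_left (((Nat.Prime.coprime_iff_not_dvd (by norm_num)).2 h2).symm.pow_right 2) h1
  have : Finite ↥X := Nat.finite_of_card_ne_zero (fun h => by rw [h] at h3; norm_num at h3)
  by_cases h17 : 17 ∣ Nat.card X
  · obtain ⟨P⟩ : Nonempty (Sylow 17 ↥X) := inferInstance
    have h4 := kc_le_syl P
    have h5 : 17 ∣ Nat.card P := P.dvd_card_of_dvd_card h17
    obtain ⟨x, hx⟩ := exists_prime_orderOf_dvd_card' 17 h5
    have h6 : Nat.card (centralizer ((P : Subgroup ↥X) : Set ↥X)) ≤ 255 := by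
      refine card_centralizer_seventeen (x := ((x : ↥X) : (Fin (2 * 4) → ZMod 2) ≃ₗ[ZMod 2] (Fin (2 * 4) → ZMod 2)))
        ?_ (X.subtype.comp (centralizer ((P : Subgroup ↥X) : Set ↥X)).subtype)
        (X.subtype_injective.comp (Subgroup.subtype_injective _)) ?_
      · rw [Subgroup.orderOf_coe, Subgroup.orderOf_coe, hx]
      · intro c
        have h7 := mem_centralizer_iff.1 c.2 x.1 x.2
        exact (congrArg Subtype.val h7).symm
    have h8 : Nat.card X ≤ 17 * 111476736 := Nat.le_of_dvd (by norm_num) h3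
    have h9 : Nat.card X / 17 ≤ 111476736 := Nat.div_le_of_le_mul h8
    omega
  · have h4 : Nat.card X ∣ 111476736 :=
      Nat.Coprime.dvd_of_dvd_mul_left ((Nat.Prime.coprime_iff_not_dvd (by norm_num)).2 h17).symm h3
    exact (kc_le_card _).trans ((Nat.le_of_dvd (by norm_num) h4).trans (by norm_num))

/-- The Fitting subgroup has order prime to `r` if `O_r = 1`. -/
theorem cop_fitting {G : Type*} [Group G] [Finite G] {r : ℕ} [hr : Fact r.Prime] (h : pCore r G = ⊥) (k : ℕ) :
    (Nat.card (fittingSubgroup G)).Coprime (r ^ k) := by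
  apply Nat.Coprime.pow_right
  rw [Nat.coprime_comm, Nat.Prime.coprime_iff_not_dvd hr.out]
  exact fun h1 => pCore_ne_bot_of_dvd h1 h

theorem card_eight_le (hS : ∀ (S : Type) [Group S] [Finite S] [IsSimpleGroup S], IsKnownSimple' S)
    (Hb : Subgroup ((Fin (2 * 4) → ZMod 2) ≃ₗ[ZMod 2] (Fin (2 * 4) → ZMod 2))) (hd : Nat.card Hb ∣ 194969600)
    (hI : Irr Hb) : Nat.card Hb ≤ 15625 := by
  have i2 : Fact (Nat.Prime 2) := ⟨by norm_num⟩
  have i5 : Fact (Nat.Prime 5) := ⟨by norm_num⟩
  have i7 : Fact (Nat.Prime 7) := ⟨by norm_num⟩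
  have i17 : Fact (Nat.Prime 17) := ⟨by norm_num⟩
  have hfin : Finite ↥Hb := Nat.finite_of_card_ne_zero (fun h => by rw [h] at hd; norm_num at hd)
  have hsol : Group.IsSolvable ↥Hb := solvable_of_dvd hS (l := [(2, 16), (5, 2), (7, 1), (17, 1)]) (N := 194969600)
    (by decide +kernel) (by decide +kernel) hd
  have h2 : pCore 2 ↥Hb = ⊥ := pCore_eq_bot hI (by rw [card_v4]; decide)
  have h7 : pCore 7 ↥Hb = ⊥ := pCore_eq_bot hI (by rw [card_v4]; decide)
  by_cases h17 : pCore 17 ↥Hb = ⊥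
  · -- the Fitting subgroup is a `5`-group
    have hF : Nat.card (fittingSubgroup ↥Hb) ∣ 25 := by
      have e : (194969600 : ℕ) = 2 ^ 16 * (7 ^ 1 * (17 ^ 1 * 25)) := by norm_num
      have h3 : Nat.card (fittingSubgroup ↥Hb) ∣ 2 ^ 16 * (7 ^ 1 * (17 ^ 1 * 25)) :=
        e ▸ ((card_subgroup_dvd_card _).trans hd)
      exact (cop_fitting h17 1).dvd_of_dvd_mul_left
        ((cop_fitting h7 1).dvd_of_dvd_mul_left ((cop_fitting h2 16).dvd_of_dvd_mul_left h3))
    have hF' : Nat.card (pCore 5 ↥Hb) ∣ 5 ^ 2 := by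
      obtain ⟨n, hn⟩ := (pCore_isPGroup (G := ↥Hb) 5).exists_card_eq
      have h3 : Nat.card (pCore 5 ↥Hb) ∣ 7798784 * 5 ^ 2 := by
        have := (card_subgroup_dvd_card (pCore 5 ↥Hb)).trans hd
        norm_num
        exact this
      rw [hn] at h3 ⊢
      exact (Nat.Coprime.pow_left n (by norm_num)).dvd_of_dvd_mul_left h3
    obtain ⟨z, hz, w, hw, hzw⟩ := exists_two_gen (by norm_num) hF'
    have hn5 : (pCore 5 ↥Hb).Normal := inferInstance
    have key := card_le_of_two (G := ↥Hb) (z := z) (w := w) (fun r hr => by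
      have : Fact r.Prime := ⟨hr⟩
      by_cases hr5 : r = 5
      · subst hr5; exact hzw
      · by_cases hrd : r ∣ Nat.card ↥Hb
        · have h3 : r ∣ 2 ^ 16 * (5 ^ 2 * (7 * 17)) := by
            have := hrd.trans hd
            norm_num
            exact this
          rw [hr.dvd_mul, hr.dvd_mul, hr.dvd_mul] at h3
          rcases h3 with h3 | h3 | h3 | h3
          · have h4 := (Nat.prime_dvd_prime_iff_eq hr Nat.prime_two).1 (hr.dvd_of_dvd_pow h3)
            subst h4; rw [h2]; exact bot_le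
          · exact absurd ((Nat.prime_dvd_prime_iff_eq hr (by norm_num)).1 (hr.dvd_of_dvd_pow h3)) hr5
          · have h4 := (Nat.prime_dvd_prime_iff_eq hr (by norm_num)).1 h3
            subst h4; rw [h7]; exact bot_le
          · have h4 := (Nat.prime_dvd_prime_iff_eq hr (by norm_num)).1 h3
            subst h4; rw [h17]; exact bot_le
        · rw [pCore_eq_bot_of_not_dvd hrd]; exact bot_le)
    have k1 := index_centralizer_le hn5 hz
    have k2 := index_centralizer_le hn5 hw
    have k3 : Nat.card (pCore 5 ↥Hb) ≤ 25 := Nat.le_of_dvd (by norm_num) hF'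
    have k4 : Nat.card (fittingSubgroup ↥Hb) ≤ 25 := Nat.le_of_dvd (by norm_num) hF
    calc Nat.card ↥Hb ≤ _ := key
      _ ≤ 25 * (25 * 25) := Nat.mul_le_mul k4 (Nat.mul_le_mul (k1.trans k3) (k2.trans k3))
      _ = 15625 := by norm_num
  · -- `O_17` has order `17`
    obtain ⟨n, hn⟩ := (pCore_isPGroup (G := ↥Hb) 17).exists_card_eq
    have hcard : Nat.card (pCore 17 ↥Hb) ∣ 17 := by
      have h3 : Nat.card (pCore 17 ↥Hb) ∣ 11468800 * 17 := by
        have := (card_subgroup_dvd_card (pCore 17 ↥Hb)).trans hd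
        norm_num
        exact this
      rw [hn] at h3 ⊢
      exact (Nat.Coprime.pow_left n (by norm_num)).dvd_of_dvd_mul_left h3
    have h3 : Nat.card (pCore 17 ↥Hb) = 17 := by
      rcases (Nat.dvd_prime (by norm_num)).1 hcard with h | h
      · exact absurd ((Subgroup.card_eq_one).1 h) h17
      · exact h
    obtain ⟨x, hx⟩ := exists_prime_orderOf_dvd_card' 17 (dvd_of_eq h3.symm)
    have hnn : (pCore 17 ↥Hb).Normal := inferInstance
    have h4 := index_centralizer_le hnn x.2
    have h5 : Nat.card (centralizer ({(x : ↥Hb)} : Set ↥Hb)) ≤ 255 := by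
      refine card_centralizer_seventeen (x := ((x : ↥Hb) : (Fin (2 * 4) → ZMod 2) ≃ₗ[ZMod 2] (Fin (2 * 4) → ZMod 2)))
        ?_ (Hb.subtype.comp (centralizer ({(x : ↥Hb)} : Set ↥Hb)).subtype)
        (Hb.subtype_injective.comp (Subgroup.subtype_injective _)) ?_
      · rw [Subgroup.orderOf_coe, Subgroup.orderOf_coe, hx]
      · intro c
        have h7 := mem_centralizer_iff.1 c.2 x.1 rfl
        exact (congrArg Subtype.val h7).symm
    rw [h3] at h4
    rw [← (centralizer ({(x : ↥Hb)} : Set ↥Hb)).card_mul_index]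
    calc _ ≤ 255 * 17 := Nat.mul_le_mul h5 h4
      _ ≤ 15625 := by norm_num

theorem ebd_3_4_of (hS : ∀ (S : Type) [Group S] [Finite S] [IsSimpleGroup S], IsKnownSimple' S) :
    EBd 3 4 83748 := by
  intro ω Hb hA hN hiso hp hI X hX
  have h1 : Nat.card Hb ∣ 3 ^ 5 * 194969600 := card_dvd_sp_eight ω hA hN Hb hiso
  have h3 : Nat.card Hb ∣ 194969600 :=
    Nat.Coprime.dvd_of_dvd_mul_left (((Nat.Prime.coprime_iff_not_dvd (by norm_num)).2 hp).symm.pow_right 5) h1
  have hfin : Finite ↥Hb := Nat.finite_of_card_ne_zero (fun h => by rw [h] at h3; norm_num at h3)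
  have hfin' : Finite ↥X := Finite.of_injective _ (Subgroup.inclusion_injective hX.1)
  have h4 := card_eight_le hS Hb h3 hI
  have h5 : Nat.card X ≤ Nat.card Hb := Nat.card_le_card_of_injective _ (Subgroup.inclusion_injective hX.1)
  exact (kc_le_card _).trans (h5.trans (h4.trans (by norm_num)))

theorem card_ten_le (hS : ∀ (S : Type) [Group S] [Finite S] [IsSimpleGroup S], IsKnownSimple' S)
    (Hb : Subgroup ((Fin (2 * 5) → ZMod 2) ≃ₗ[ZMod 2] (Fin (2 * 5) → ZMod 2))) (hd : Nat.card Hb ∣ 34040132403200)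
    (hI : Irr Hb) : Nat.card Hb ≤ 116281 := by
  have i2 : Fact (Nat.Prime 2) := ⟨by norm_num⟩
  have i5 : Fact (Nat.Prime 5) := ⟨by norm_num⟩
  have i7 : Fact (Nat.Prime 7) := ⟨by norm_num⟩
  have i11 : Fact (Nat.Prime 11) := ⟨by norm_num⟩
  have i17 : Fact (Nat.Prime 17) := ⟨by norm_num⟩
  have i31 : Fact (Nat.Prime 31) := ⟨by norm_num⟩
  have hfin : Finite ↥Hb := Nat.finite_of_card_ne_zero (fun h => by rw [h] at hd; norm_num at hd)
  have hsol : Group.IsSolvable ↥Hb := solvable_of_dvd hS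
    (l := [(2, 25), (5, 2), (7, 1), (11, 1), (17, 1), (31, 1)]) (N := 34040132403200)
    (by decide +kernel) (by decide +kernel) hd
  have h2 : pCore 2 ↥Hb = ⊥ := pCore_eq_bot hI (by rw [card_v5]; decide)
  have h5 : pCore 5 ↥Hb = ⊥ := pCore_eq_bot hI (by rw [card_v5]; decide)
  have h7 : pCore 7 ↥Hb = ⊥ := pCore_eq_bot hI (by rw [card_v5]; decide)
  have h17 : pCore 17 ↥Hb = ⊥ := pCore_eq_bot hI (by rw [card_v5]; decide)
  have hF : Nat.card (fittingSubgroup ↥Hb) ∣ 341 := by
    have e : (34040132403200 : ℕ) = 2 ^ 25 * (5 ^ 2 * (7 ^ 1 * (17 ^ 1 * 341))) := by norm_num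
    have h3 : Nat.card (fittingSubgroup ↥Hb) ∣ 2 ^ 25 * (5 ^ 2 * (7 ^ 1 * (17 ^ 1 * 341))) :=
      e ▸ ((card_subgroup_dvd_card _).trans hd)
    exact (cop_fitting h17 1).dvd_of_dvd_mul_left ((cop_fitting h7 1).dvd_of_dvd_mul_left
      ((cop_fitting h5 2).dvd_of_dvd_mul_left ((cop_fitting h2 25).dvd_of_dvd_mul_left h3)))
  have hc : ∀ (r m : ℕ) [Fact r.Prime], 34040132403200 = m * r → r.Coprime m → Nat.card (pCore r ↥Hb) ∣ r := by
    intro r m _ hm hcop
    obtain ⟨n, hn⟩ := (pCore_isPGroup (G := ↥Hb) r).exists_card_eq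
    have h3 : Nat.card (pCore r ↥Hb) ∣ m * r := hm ▸ ((card_subgroup_dvd_card (pCore r ↥Hb)).trans hd)
    rw [hn] at h3 ⊢
    exact (Nat.Coprime.pow_left n hcop).dvd_of_dvd_mul_left h3
  have c11 : Nat.card (pCore 11 ↥Hb) ∣ 11 := hc 11 3094557491200 (by norm_num) (by norm_num)
  have c31 : Nat.card (pCore 31 ↥Hb) ∣ 31 := hc 31 1098068787200 (by norm_num) (by norm_num)
  obtain ⟨z, hz, hz'⟩ := exists_gen (by norm_num) c11
  obtain ⟨w, hw, hw'⟩ := exists_gen (by norm_num) c31
  have hn11 : (pCore 11 ↥Hb).Normal := inferInstance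
  have hn31 : (pCore 31 ↥Hb).Normal := inferInstance
  have key := card_le_of_two (G := ↥Hb) (z := z) (w := w) (fun r hr => by
    have : Fact r.Prime := ⟨hr⟩
    by_cases hr11 : r = 11
    · subst hr11
      exact hz'.trans ((zpowers_le).2 (subset_closure (Or.inl rfl)))
    by_cases hr31 : r = 31
    · subst hr31
      exact hw'.trans ((zpowers_le).2 (subset_closure (Or.inr rfl)))
    by_cases hrd : r ∣ Nat.card ↥Hb
    · have h3 : r ∣ 2 ^ 25 * (5 ^ 2 * (7 * (11 * (17 * 31)))) := by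
        have := hrd.trans hd
        norm_num
        exact this
      rw [hr.dvd_mul, hr.dvd_mul, hr.dvd_mul, hr.dvd_mul, hr.dvd_mul] at h3
      rcases h3 with h3 | h3 | h3 | h3 | h3 | h3
      · have h4 := (Nat.prime_dvd_prime_iff_eq hr Nat.prime_two).1 (hr.dvd_of_dvd_pow h3)
        subst h4; rw [h2]; exact bot_le
      · have h4 := (Nat.prime_dvd_prime_iff_eq hr (by norm_num)).1 (hr.dvd_of_dvd_pow h3)
        subst h4; rw [h5]; exact bot_le
      · have h4 := (Nat.prime_dvd_prime_iff_eq hr (by norm_num)).1 h3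
        subst h4; rw [h7]; exact bot_le
      · exact absurd ((Nat.prime_dvd_prime_iff_eq hr (by norm_num)).1 h3) hr11
      · have h4 := (Nat.prime_dvd_prime_iff_eq hr (by norm_num)).1 h3
        subst h4; rw [h17]; exact bot_le
      · exact absurd ((Nat.prime_dvd_prime_iff_eq hr (by norm_num)).1 h3) hr31
    · rw [pCore_eq_bot_of_not_dvd hrd]; exact bot_le)
  have k1 := (index_centralizer_le hn11 hz).trans (Nat.le_of_dvd (by norm_num) c11)
  have k2 := (index_centralizer_le hn31 hw).trans (Nat.le_of_dvd (by norm_num) c31)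
  have k4 : Nat.card (fittingSubgroup ↥Hb) ≤ 341 := Nat.le_of_dvd (by norm_num) hF
  calc Nat.card ↥Hb ≤ _ := key
    _ ≤ 341 * (11 * 31) := Nat.mul_le_mul k4 (Nat.mul_le_mul k1 k2)
    _ = 116281 := by norm_num

theorem ebd_3_5_of (hS : ∀ (S : Type) [Group S] [Finite S] [IsSimpleGroup S], IsKnownSimple' S) :
    EBd 3 5 903912287244 := by
  intro ω Hb hA hN hiso hp hI X hX
  have h1 : Nat.card Hb ∣ 3 ^ 6 * 34040132403200 := card_dvd_sp_ten ω hA hN Hb hiso
  have h3 : Nat.card Hb ∣ 34040132403200 :=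
    Nat.Coprime.dvd_of_dvd_mul_left (((Nat.Prime.coprime_iff_not_dvd (by norm_num)).2 hp).symm.pow_right 6) h1
  have hfin : Finite ↥Hb := Nat.finite_of_card_ne_zero (fun h => by rw [h] at h3; norm_num at h3)
  have hfin' : Finite ↥X := Finite.of_injective _ (Subgroup.inclusion_injective hX.1)
  have h4 := card_ten_le hS Hb h3 hI
  have h5 : Nat.card X ≤ Nat.card Hb := Nat.card_le_card_of_injective _ (Subgroup.inclusion_injective hX.1)
  exact (kc_le_card _).trans (h5.trans (h4.trans (by norm_num)))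

end Cfsg.Agent.H660.KGL
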