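import Cfsg.Agent.S0000
import Cfsg.Agent.H660.KGL.ESix

/-!
# Project KGL, task E6 (helper660): the final forms (with S0000)

`ebd_5_4` and `ebd_7_4` (no S0000) are in `H660/KGL/ESix.lean`.
-/

set_option autoImplicit false

namespace Cfsg.Agent.H660.KGL

open Cfsg.Agent.H475.KGL

theorem ebd_3_4 : EBd 3 4 83748 := ebd_3_4_of (fun _ _ _ _ => Cfsg.Agent.S0000.result)

theorem ebd_3_5 : EBd 3 5 903912287244 := ebd_3_5_of (fun _ _ _ _ => Cfsg.Agent.S0000.result)

end Cfsg.Agent.H660.KGL
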